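import Cfsg.Agent.Lib.Helper5.Nse.Defs

/-!
# S4004, package [FREE]

If no element of order `n` commutes with an element of order `q` (a prime dividing the group
order), then `q` divides the number of elements of order `n`.
-/

set_option autoImplicit false

namespace Cfsg.Agent.Lib.Helper1.Nse

universe u

open Cfsg.Agent.Lib.Helper5.Nse

/-- the conjugation action of a subgroup on the set of elements of a given order -/
@[reducible] def conjOrdSub {G : Type*} [Group G] (H : Subgroup G) (n : ℕ) :
    MulAction H {g : G // orderOf g = n} where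
  smul h x := ⟨(h : G) * x.1 * (h : G)⁻¹,
    (MulEquiv.orderOf_eq (MulAut.conj (h : G)) x.1).trans x.2⟩
  one_smul x := by
    apply Subtype.ext
    show ((1 : H) : G) * x.1 * ((1 : H) : G)⁻¹ = x.1
    simp
  mul_smul a b x := by
    apply Subtype.ext
    show ((a * b : H) : G) * x.1 * ((a * b : H) : G)⁻¹ = (a : G) * ((b : G) * x.1 * (b : G)⁻¹) * (a : G)⁻¹
    rw [Subgroup.coe_mul]
    group

theorem conjOrdSub_smul_coe {G : Type*} [Group G] (H : Subgroup G) (n : ℕ) (h : H)
    (x : {g : G // orderOf g = n}) :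
    ((conjOrdSub H n).smul h x : G) = (h : G) * x.1 * (h : G)⁻¹ := rfl

theorem pkgFree : PkgFree.{u} := by
  intro G _ _ q n hq hdvd hno
  have : Fact q.Prime := ⟨hq⟩
  obtain ⟨y, hy⟩ := exists_prime_orderOf_dvd_card' q hdvd
  have hQ : IsPGroup q (Subgroup.zpowers y) :=
    IsPGroup.of_card (n := 1) (by rw [Nat.card_zpowers, hy, pow_one])
  let _ := conjOrdSub (Subgroup.zpowers y) n
  have h1 := hQ.card_modEq_card_fixedPoints {g : G // orderOf g = n}
  have h2 : IsEmpty (MulAction.fixedPoints (Subgroup.zpowers y) {g : G // orderOf g = n}) := by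
    constructor
    rintro ⟨x, hx⟩
    rw [MulAction.mem_fixedPoints] at hx
    have h3 := congrArg Subtype.val (hx ⟨y, Subgroup.mem_zpowers y⟩)
    have h4 : y * x.1 * y⁻¹ = x.1 := h3
    apply hno x.1 y x.2 hy
    calc x.1 * y = (y * x.1 * y⁻¹) * y := by rw [h4]
      _ = y * x.1 := by group
  have h5 : Nat.card (MulAction.fixedPoints (Subgroup.zpowers y) {g : G // orderOf g = n}) = 0 :=
    Nat.card_of_isEmpty
  rw [h5] at h1
  exact (Nat.modEq_zero_iff_dvd).1 h1

end Cfsg.Agent.Lib.Helper1.Nse
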