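import Cfsg.Agent.Lib.Helper5.Nse.Defs
import Cfsg.Agent.Lib.Helper1.Nse.Free

/-!
# S4004, package [FP]

If the number of elements of order `q` is `≡ 1 (mod p)`, a Sylow `p`-subgroup centralizes an
element of order `q`, and then there are at least twice as many elements of order `p q` as of
order `p`.
-/

set_option autoImplicit false

namespace Cfsg.Agent.Lib.Helper1.Nse

universe u

open Cfsg.Agent.Lib.Helper5.Nse

/-- if `#{g | orderOf g = q} ≡ 1 (mod p)`, every element of order `p` commutes with some element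
of order `q`. -/
theorem exists_commute_of_card_mod {G : Type*} [Group G] [Finite G] (p q : ℕ) [Fact p.Prime]
    (hmod : Nat.card {g : G // orderOf g = q} % p = 1) (x : G) (hx : orderOf x = p) :
    ∃ y : G, orderOf y = q ∧ x * y = y * x := by
  have hp : p.Prime := Fact.out
  obtain P : Sylow p G := default
  let _ := conjOrdSub (P : Subgroup G) q
  have h1 := P.isPGroup'.card_modEq_card_fixedPoints {g : G // orderOf g = q}
  have h2 : Nat.card (MulAction.fixedPoints (P : Subgroup G) {g : G // orderOf g = q}) ≠ 0 := by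
    intro h0
    rw [h0] at h1
    have h3 : Nat.card {g : G // orderOf g = q} % p = 0 := h1
    rw [hmod] at h3
    exact one_ne_zero h3
  have h4 : Nonempty (MulAction.fixedPoints (P : Subgroup G) {g : G // orderOf g = q}) := by
    by_contra hne
    rw [not_nonempty_iff] at hne
    exact h2 Nat.card_of_isEmpty
  obtain ⟨⟨y0, hy0⟩⟩ := h4
  rw [MulAction.mem_fixedPoints] at hy0
  have hfix : ∀ s ∈ (P : Subgroup G), s * y0.1 * s⁻¹ = y0.1 := by
    intro s hs
    exact congrArg Subtype.val (hy0 ⟨s, hs⟩)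
  have hz : IsPGroup p (Subgroup.zpowers x) :=
    IsPGroup.of_card (n := 1) (by rw [Nat.card_zpowers, hx, pow_one])
  obtain ⟨Q, hQ⟩ := hz.exists_le_sylow
  obtain ⟨h, hh⟩ := MulAction.exists_smul_eq G P Q
  have hxQ : x ∈ (Q : Subgroup G) := hQ (Subgroup.mem_zpowers x)
  rw [← hh, Sylow.coe_subgroup_smul, Subgroup.mem_smul_pointwise_iff_exists] at hxQ
  obtain ⟨s, hs, hsx⟩ := hxQ
  have hsx' : h * s * h⁻¹ = x := hsx
  refine ⟨h * y0.1 * h⁻¹, ?_, ?_⟩
  · exact (MulEquiv.orderOf_eq (MulAut.conj h) y0.1).trans y0.2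
  · have h5 := hfix s hs
    have h6 : s * y0.1 = y0.1 * s := by
      calc s * y0.1 = (s * y0.1 * s⁻¹) * s := by group
        _ = y0.1 * s := by rw [h5]
    rw [← hsx']
    calc h * s * h⁻¹ * (h * y0.1 * h⁻¹) = h * (s * y0.1) * h⁻¹ := by group
      _ = h * (y0.1 * s) * h⁻¹ := by rw [h6]
      _ = h * y0.1 * h⁻¹ * (h * s * h⁻¹) := by group

theorem pkgFP : PkgFP.{u} := by
  intro G _ _ p q hp hq hpq hq2 hmod
  have : Fact p.Prime := ⟨hp⟩
  have hex := exists_commute_of_card_mod (G := G) p q hmod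
  choose Y hYo hYc using hex
  -- the partner of an element of order `p`
  have hcop : Nat.Coprime p q := (Nat.coprime_primes hp hq).2 hpq
  obtain ⟨m, -, hm⟩ := Nat.exists_mul_mod_eq_one_of_coprime hcop.symm hp.one_lt
  -- `q * m % p = 1`
  have hrec : ∀ x : G, orderOf x = p → (x ^ q) ^ m = x := by
    intro x hx
    rw [← pow_mul, ← pow_mod_orderOf, hx, hm, pow_one]
  have hord : ∀ (x : {g : G // orderOf g = p}) (k : Fin 2),
      orderOf ((Y x.1 x.2) ^ (k.1 + 1)) = q := by
    intro x k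
    have hc : Nat.Coprime (orderOf (Y x.1 x.2)) (k.1 + 1) := by
      rw [hYo]
      have hk : k.1 + 1 = 1 ∨ k.1 + 1 = 2 := by omega
      rcases hk with hk | hk
      · rw [hk]; exact Nat.coprime_one_right q
      · rw [hk]; exact (Nat.coprime_primes hq Nat.prime_two).2 hq2
    rw [hc.orderOf_pow, hYo]
  have hcomm : ∀ (x : {g : G // orderOf g = p}) (k : Fin 2),
      Commute x.1 ((Y x.1 x.2) ^ (k.1 + 1)) := by
    intro x k
    exact Commute.pow_right (hYc x.1 x.2) _
  let f : {g : G // orderOf g = p} × Fin 2 → {g : G // orderOf g = p * q} := fun a =>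
    ⟨a.1.1 * (Y a.1.1 a.1.2) ^ (a.2.1 + 1), by
      have h1 := (hcomm a.1 a.2).orderOf_mul_eq_mul_orderOf_of_coprime
        (by rw [a.1.2, hord a.1 a.2]; exact hcop)
      rw [h1, a.1.2, hord a.1 a.2]⟩
  have hf : Function.Injective f := by
    rintro ⟨x, k⟩ ⟨x', k'⟩ hxx
    have h0 : x.1 * (Y x.1 x.2) ^ (k.1 + 1) = x'.1 * (Y x'.1 x'.2) ^ (k'.1 + 1) :=
      congrArg Subtype.val hxx
    have hq1 : ∀ (x : {g : G // orderOf g = p}) (k : Fin 2),
        (x.1 * (Y x.1 x.2) ^ (k.1 + 1)) ^ q = x.1 ^ q := by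
      intro x k
      rw [(hcomm x k).mul_pow]
      have : ((Y x.1 x.2) ^ (k.1 + 1)) ^ q = 1 := by
        rw [← hord x k]; exact pow_orderOf_eq_one _
      rw [this, mul_one]
    have h1 : x.1 ^ q = x'.1 ^ q := by
      rw [← hq1 x k, ← hq1 x' k', h0]
    have h2 : x.1 = x'.1 := by
      rw [← hrec x.1 x.2, ← hrec x'.1 x'.2, h1]
    have h3 : x = x' := Subtype.ext h2
    subst h3
    have h4 : (Y x.1 x.2) ^ (k.1 + 1) = (Y x.1 x.2) ^ (k'.1 + 1) := mul_left_cancel h0
    have hy1 : Y x.1 x.2 ≠ 1 := by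
      intro h
      have := hYo x.1 x.2
      rw [h, orderOf_one] at this
      exact hq.one_lt.ne this
    have h5 : k = k' := by
      have hk : k.1 = 0 ∨ k.1 = 1 := by omega
      have hk' : k'.1 = 0 ∨ k'.1 = 1 := by omega
      apply Fin.ext
      rcases hk with hk | hk <;> rcases hk' with hk' | hk'
      · rw [hk, hk']
      · exfalso
        rw [hk, hk'] at h4
        apply hy1
        have h6 : Y x.1 x.2 * 1 = Y x.1 x.2 * Y x.1 x.2 := by
          rw [mul_one]; simpa [pow_two] using h4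
        exact (mul_left_cancel h6).symm
      · exfalso
        rw [hk, hk'] at h4
        apply hy1
        have h6 : Y x.1 x.2 * Y x.1 x.2 = Y x.1 x.2 * 1 := by
          rw [mul_one]; simpa [pow_two] using h4
        exact mul_left_cancel h6
      · rw [hk, hk']
    rw [h5]
  have hcard := Nat.card_le_card_of_injective f hf
  rw [Nat.card_prod, Nat.card_fin] at hcard
  rw [mul_comm]
  exact hcard

end Cfsg.Agent.Lib.Helper1.Nse
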